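import Cfsg.Agent.H348.LB.Dom
import Cfsg.Agent.Characters.Core

/-!
# The spherical function of a character of multiplicity one (helper329, for helper348; S4879)

`P ≤ G` finite, `φ ∈ Irr G` with `⟨φ, 1_P^G⟩ = 1`; `F g = |P|⁻¹ ∑_{p ∈ P} φ (p g)` is the spherical function: the
operator `e = |P|⁻¹ ∑ ρ p` is a projection of rank one, so `e A e = tr (e A) e`.
-/

set_option autoImplicit false

namespace Cfsg.Agent.H329.LB.Spher

open Cfsg Cfsg.Agent.Characters.Core Cfsg.Agent.H439.CC Cfsg.Agent.H348.LB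
open scoped ComplexConjugate

universe u

section RankOne

variable {V : Type*} [AddCommGroup V] [Module ℂ V] [FiniteDimensional ℂ V]

/-- an idempotent of trace one has rank one: `e A e = tr (e A) e` -/
theorem rank_one {e : Module.End ℂ V} (he : e * e = e) (ht : LinearMap.trace ℂ V e = 1) (A : Module.End ℂ V) :
    e * A * e = LinearMap.trace ℂ V (e * A) • e := by
  have hid : IsIdempotentElem e := he
  have hp : LinearMap.IsProj (LinearMap.range e) e := LinearMap.IsIdempotentElem.isProj_range e hid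
  have hr : Module.finrank ℂ (LinearMap.range e) = 1 := by
    have h1 := hp.trace
    rw [ht] at h1
    exact_mod_cast h1.symm
  obtain ⟨v, hv0, hv⟩ := finrank_eq_one_iff'.1 hr
  have h2 : ∀ x, ∃ c : ℂ, e x = c • (v : V) := by
    intro x
    obtain ⟨c, hc⟩ := hv ⟨e x, LinearMap.mem_range_self e x⟩
    exact ⟨c, by rw [← Submodule.coe_smul, hc]⟩
  have hev : e (v : V) = (v : V) := hp.map_id v v.2
  obtain ⟨c, hc⟩ := h2 (A v)
  have key : e * A * e = c • e := by
    ext x
    obtain ⟨d, hd⟩ := h2 x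
    simp only [Module.End.mul_apply, LinearMap.smul_apply]
    rw [hd, map_smul, map_smul, hc, smul_comm]
  have h3 : LinearMap.trace ℂ V (e * A) = c := by
    have h4 : LinearMap.trace ℂ V (e * A * e) = LinearMap.trace ℂ V (e * A) := by
      rw [LinearMap.trace_mul_comm, ← mul_assoc, he]
    rw [← h4, key, map_smul, ht, smul_eq_mul, mul_one]
  rw [h3, key]

end RankOne

variable {W : Type u} [Group W] [Fintype W] (P : Subgroup W) [Fintype P]

/-- the spherical function -/
noncomputable def sph (φ : W → ℂ) (g : W) : ℂ := (Nat.card P : ℂ)⁻¹ * ∑ p : P, φ (p * g)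

theorem sph_of_mu' (phi : IrrCharacter W) (h : mu P (phi : W → ℂ) = 1) :
    Sph P (phi : W → ℂ) (sph P (phi : W → ℂ)) ∧ ∀ g, sph P (phi : W → ℂ) g⁻¹ = conj (sph P (phi : W → ℂ) g) := by
  obtain ⟨φ, hφ⟩ := phi
  obtain ⟨n, ρ, hρ, hc⟩ := id hφ
  have hcl : IsClassFunction W φ := isIrr_isClassFunction hφ
  have hP : (Nat.card P : ℂ) ≠ 0 := card_ne_zero_complex
  have hW : (Nat.card W : ℂ) ≠ 0 := card_ne_zero_complex
  have htr : ∀ g, φ g = LinearMap.trace ℂ _ (ρ g) := fun g => by rw [← hc]; rfl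
  change mu P φ = 1 at h
  change Sph P φ (sph P φ) ∧ ∀ g, sph P φ g⁻¹ = conj (sph P φ g)
  set e : Module.End ℂ (Fin n → ℂ) := (Nat.card P : ℂ)⁻¹ • ∑ p : P, ρ p with hedef
  have hsum : ∑ p : P, ρ p = (Nat.card P : ℂ) • e := by
    rw [hedef, smul_smul, mul_inv_cancel₀ hP, one_smul]
  have hle : ∀ p ∈ P, ρ p * e = e := by
    intro p hp
    rw [hedef, mul_smul_comm, Finset.mul_sum]
    congr 1
    refine Fintype.sum_equiv (Equiv.mulLeft (⟨p, hp⟩ : P)) _ _ fun q => ?_
    rw [← map_mul]; rfl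
  have hre : ∀ p ∈ P, e * ρ p = e := by
    intro p hp
    rw [hedef, smul_mul_assoc, Finset.sum_mul]
    congr 1
    refine Fintype.sum_equiv (Equiv.mulRight (⟨p, hp⟩ : P)) _ _ fun q => ?_
    rw [← map_mul]; rfl
  have hee : e * e = e := by
    conv_lhs => rw [hedef]
    rw [smul_mul_assoc, Finset.sum_mul, Finset.sum_congr rfl fun (p : P) _ => hle (p : W) p.2, Finset.sum_const,
      Finset.card_univ, ← Nat.card_eq_fintype_card, ← Nat.cast_smul_eq_nsmul ℂ, smul_smul, inv_mul_cancel₀ hP, one_smul]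
  have hte : LinearMap.trace ℂ _ e = 1 := by
    rw [hedef, map_smul, map_sum, smul_eq_mul, ← h, mu, finsum_eq_sum_of_fintype]
    congr 1
    exact Finset.sum_congr rfl fun p _ => (htr p).symm
  have hF : ∀ g, sph P φ g = LinearMap.trace ℂ _ (e * ρ g) := by
    intro g
    rw [sph, hedef, smul_mul_assoc, map_smul, smul_eq_mul, Finset.sum_mul, map_sum]
    congr 1
    refine Finset.sum_congr rfl fun p _ => ?_
    rw [htr, map_mul]
  have hmul : ∀ g k, ∑ p : P, sph P φ (k * p * g) = Nat.card P * (sph P φ k * sph P φ g) := by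
    intro g k
    have h1 : ∀ p : P, sph P φ (k * p * g) = LinearMap.trace ℂ _ (e * ρ k * ρ p * ρ g) := by
      intro p
      rw [hF, map_mul ρ, map_mul ρ, ← mul_assoc, ← mul_assoc]
    rw [Finset.sum_congr rfl fun p _ => h1 p, ← map_sum, ← Finset.sum_mul, ← Finset.mul_sum, hsum, mul_smul_comm,
      smul_mul_assoc, map_smul, smul_eq_mul, rank_one hee hte, smul_mul_assoc, map_smul, smul_eq_mul, ← hF, ← hF]
  have hschur : ∀ g, φ 1 • ∑ y : W, ρ (y * g * y⁻¹) = ((Nat.card W : ℂ) * φ g) • (1 : Module.End ℂ (Fin n → ℂ)) := by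
    intro g
    obtain ⟨c, hc'⟩ : ∃ c : ℂ, ∑ y : W, ρ (y * g * y⁻¹) = c • (1 : Module.End ℂ (Fin n → ℂ)) := by
      let T : Representation.IntertwiningMap ρ ρ := LinearMap.intertwiningMap_of_isIntertwiningMap ρ ρ
        (∑ y : W, ρ (y * g * y⁻¹)) (by
          intro x v
          simp only [LinearMap.sum_apply, map_sum]
          refine Fintype.sum_equiv (Equiv.mulLeft x⁻¹) _ _ fun y => ?_
          rw [← Module.End.mul_apply, ← map_mul, ← Module.End.mul_apply, ← map_mul]
          congr 2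
          simp only [Equiv.coe_mulLeft]
          group)
      obtain ⟨c, hc⟩ := (Representation.IsIrreducible.algebraMap_intertwiningMap_bijective_of_isAlgClosed
        (ρ := ρ)).2 T
      exact ⟨c, (congrArg Representation.IntertwiningMap.toLinearMap hc).symm⟩
    have h1 := congrArg (LinearMap.trace ℂ (Fin n → ℂ)) hc'
    rw [map_sum, map_smul, smul_eq_mul] at h1
    have h2 : ∀ y : W, LinearMap.trace ℂ _ (ρ (y * g * y⁻¹)) = φ g := fun y => by rw [← htr, hcl g y]
    rw [Finset.sum_congr rfl fun y _ => h2 y, Finset.sum_const, Finset.card_univ, ← Nat.card_eq_fintype_card,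
      nsmul_eq_mul] at h1
    have h3 : LinearMap.trace ℂ _ (1 : Module.End ℂ (Fin n → ℂ)) = φ 1 := by rw [htr, map_one ρ]
    rw [h3] at h1
    rw [hc', smul_smul, h1, mul_comm]
  have hconj : ∀ g, φ 1 * ∑ y, sph P φ (y * g * y⁻¹) = Nat.card W * φ g := by
    intro g
    rw [Finset.sum_congr rfl fun y _ => hF (y * g * y⁻¹), ← map_sum, ← Finset.mul_sum, ← smul_eq_mul, ← map_smul,
      ← mul_smul_comm, hschur, mul_smul_comm, mul_one, map_smul, hte, smul_eq_mul, mul_one]
  refine ⟨⟨?_, ?_, ?_, hmul, ?_, hconj⟩, ?_⟩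
  · intro p hp g
    rw [hF, hF, map_mul ρ, ← mul_assoc, hre p hp]
  · intro p hp g
    rw [hF, hF, map_mul ρ, ← mul_assoc, LinearMap.trace_mul_comm, ← mul_assoc, hle p hp, LinearMap.trace_mul_comm]
  · rw [hF, map_one ρ, mul_one, hte]
  · have h1 : ∀ g : W, sph P φ g * sph P φ g⁻¹ = (Nat.card P : ℂ)⁻¹ * ∑ p : P, sph P φ (g * p * g⁻¹) := by
      intro g
      rw [hmul, ← mul_assoc, inv_mul_cancel₀ hP, one_mul]
    rw [Finset.sum_congr rfl fun g _ => h1 g, ← Finset.mul_sum, Finset.sum_comm, mul_left_comm, Finset.mul_sum,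
      Finset.sum_congr rfl fun (p : P) _ => hconj (p : W), ← Finset.mul_sum, mul_left_comm]
    have h2 : (Nat.card P : ℂ)⁻¹ * ∑ p : P, φ p = 1 := by rw [← h, mu, finsum_eq_sum_of_fintype]
    rw [h2, mul_one]
  · intro g
    have hcf : ∀ a b : W, φ (a * b) = φ (b * a) := fun a b => by
      have := hcl (a * b) b
      rw [← this]
      congr 1
      group
    rw [sph, sph, map_mul, map_inv₀, map_sum, Complex.conj_natCast]
    congr 1
    refine Fintype.sum_equiv (Equiv.inv P) _ _ fun p => ?_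
    rw [← isCharacter_apply_inv (isIrr_isCharacter hφ), hcf]
    congr 1
    simp [mul_inv_rev]

/-- box L1 of helper348 -/
theorem sph_of_mu (phi : IrrCharacter W) (h : mu P (phi : W → ℂ) = 1) :
    ∃ F : W → ℂ, Sph P (phi : W → ℂ) F ∧ ∀ g, F g⁻¹ = conj (F g) :=
  ⟨_, sph_of_mu' P phi h⟩

end Cfsg.Agent.H329.LB.Spher
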